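/-
Coset maps and the prime index theorem for coprime action: if `C_K(A)` has prime index `p` in `K`
then `|[K, A]| = p`.
-/
import Cfsg.Agent.Lib.Coprime.Abelian
import Mathlib.GroupTheory.IndexNormal

set_option autoImplicit false

namespace Cfsg.Agent.Lib.Coprime.PrimeIndex

open Cfsg.Agent.Lib.Coprime.SchurZassenhaus Cfsg.Agent.Lib.Coprime.Action
  Cfsg.Agent.Lib.Coprime.Abelian
open scoped commutatorElement

universe u

variable {G : Type u} [Group G]

/-- The natural map `H / (L ∩ H) → K / L` for `H ≤ K`. -/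
def cosetMap (H L K : Subgroup G) (hH : H ≤ K) :
    H ⧸ (L ⊓ H).subgroupOf H → K ⧸ L.subgroupOf K :=
  Quotient.map' (fun x => (⟨x, hH x.2⟩ : K)) (by
    intro a b hab
    rw [QuotientGroup.leftRel_apply] at hab ⊢
    have h : ((a : G))⁻¹ * b ∈ L ⊓ H := hab
    exact (Subgroup.mem_inf.mp h).1)

theorem cosetMap_injective (H L K : Subgroup G) (hH : H ≤ K) :
    Function.Injective (cosetMap H L K hH) := by
  intro x y
  induction x using QuotientGroup.induction_on with | _ a => ?_
  induction y using QuotientGroup.induction_on with | _ b => ?_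
  intro h
  have h' : (QuotientGroup.mk (⟨a, hH a.2⟩ : K) : K ⧸ L.subgroupOf K) =
      QuotientGroup.mk (⟨b, hH b.2⟩ : K) := h
  rw [QuotientGroup.eq] at h' ⊢
  have h1 : ((a : G))⁻¹ * b ∈ L := h'
  have h2 : ((a : G))⁻¹ * b ∈ H := H.mul_mem (H.inv_mem a.2) b.2
  exact Subgroup.mem_inf.mpr ⟨h1, h2⟩

/-- If `K = H L` (with `H, L ≤ K`), the index of `L ⊓ H` in `H` is that of `L` in `K`. -/
theorem relIndex_inf_eq_of_mul {H L K : Subgroup G} (hH : H ≤ K)
    (hprod : ∀ x ∈ K, ∃ h ∈ H, ∃ l ∈ L, x = h * l) :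
    (L ⊓ H).relIndex H = L.relIndex K := by
  unfold Subgroup.relIndex Subgroup.index
  apply Nat.card_congr
  refine Equiv.ofBijective (cosetMap H L K hH) ⟨cosetMap_injective H L K hH, ?_⟩
  intro y
  induction y using QuotientGroup.induction_on with | _ x => ?_
  obtain ⟨h, hh, l, hl, e⟩ := hprod x x.2
  refine ⟨QuotientGroup.mk ⟨h, hh⟩, ?_⟩
  show (QuotientGroup.mk (⟨h, hH hh⟩ : K) : K ⧸ L.subgroupOf K) = QuotientGroup.mk x
  rw [QuotientGroup.eq]
  show h⁻¹ * (x : G) ∈ L
  rw [e]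
  simpa using hl

/-- Conversely: if `L ⊓ H` has in `H` an index at least that of `L` in `K`, then `K = H L`. -/
theorem exists_mul_of_relIndex_le [Finite G] {H L K : Subgroup G} (hH : H ≤ K)
    (hle : L.relIndex K ≤ (L ⊓ H).relIndex H) :
    ∀ x ∈ K, ∃ h ∈ H, ∃ l ∈ L, x = h * l := by
  intro x hx
  have hsurj := (Function.Injective.bijective_of_nat_card_le (cosetMap_injective H L K hH) (by
    unfold Subgroup.relIndex Subgroup.index at hle
    exact hle)).2
  obtain ⟨y, hy⟩ := hsurj (QuotientGroup.mk ⟨x, hx⟩)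
  induction y using QuotientGroup.induction_on with | _ h => ?_
  have hy' : (QuotientGroup.mk (⟨h, hH h.2⟩ : K) : K ⧸ L.subgroupOf K) = QuotientGroup.mk ⟨x, hx⟩ := hy
  rw [QuotientGroup.eq] at hy'
  have h1 : (h : G)⁻¹ * x ∈ L := hy'
  exact ⟨h, h.2, _, h1, by group⟩

variable [Finite G]

/-- **Coprime action**: if `C_K(A)` has prime index `p` in `K`, then `|[K, A]| = p`. -/
theorem card_commutator_eq_of_relIndex_prime {A K : Subgroup G}
    (hAK : A ≤ Subgroup.normalizer (K : Set G)) (hcop : (Nat.card A).Coprime (Nat.card K))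
    (hsolv : Group.IsSolvable A ∨ Group.IsSolvable K) {p : ℕ} (hp : p.Prime)
    (hidx : (K ⊓ Subgroup.centralizer (A : Set G)).relIndex K = p) :
    Nat.card (⁅K, A⁆ : Subgroup G) = p := by
  have : Fact p.Prime := ⟨hp⟩
  set Q : Subgroup G := ⁅K, A⁆ with hQdef
  have hQK : Q ≤ K := commutator_le_of_le_normalizer hAK
  have hKQ : K ≤ Subgroup.normalizer (Q : Set G) := le_normalizer_commutator_left K A
  have hAQ : A ≤ Subgroup.normalizer (Q : Set G) := le_normalizer_commutator_right K A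
  have hcopQ : (Nat.card A).Coprime (Nat.card Q) := hcop.coprime_dvd_right (Subgroup.card_dvd_of_le hQK)
  have hsolvQ : Group.IsSolvable A ∨ Group.IsSolvable Q := by
    rcases hsolv with h | h
    · exact Or.inl h
    · exact Or.inr (isSolvable_of_le hQK)
  have hQQ : ⁅Q, A⁆ = Q := commutator_commutator_eq hAK hcop hsolv
  set C : Subgroup G := Subgroup.centralizer (A : Set G) with hCdef
  set D : Subgroup G := Q ⊓ C with hDdef
  -- `K = Q C_K(A)`, thus `[Q : D] = p`
  have hprod : ∀ x ∈ K, ∃ q ∈ Q, ∃ c ∈ K ⊓ C, x = q * c := by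
    intro x hx
    have hn : K ⊓ C ≤ Subgroup.normalizer (Q : Set G) := inf_le_left.trans hKQ
    apply exists_mul_of_mem_sup hn
    rw [commutator_sup_fixed hAK hcop hsolv]
    exact hx
  have hDidx : D.relIndex Q = p := by
    have hDeq : (K ⊓ C) ⊓ Q = D := by
      apply le_antisymm
      · exact le_inf inf_le_right (inf_le_left.trans inf_le_right)
      · exact le_inf (le_inf (inf_le_left.trans hQK) inf_le_right) inf_le_left
    rw [← hidx, ← relIndex_inf_eq_of_mul hQK hprod, hDeq]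
  have hDQ : D ≤ Q := inf_le_left
  -- an `A`-invariant Sylow `p`-subgroup `P` of `Q`
  obtain ⟨P, hPs, hAP⟩ := exists_invariant_sylowIn (p := p) hAQ hcopQ hsolvQ
  have hPQ : P ≤ Q := hPs.1
  have hPnD : ¬ P ≤ D := by
    intro h
    apply hPs.2.2
    have h1 := Subgroup.relIndex_mul_relIndex P D Q h hDQ
    rw [← h1, hDidx]
    exact Dvd.intro_left _ rfl
  have hPidx : p ≤ (D ⊓ P).relIndex P := by
    have hdvd : (D ⊓ P).relIndex P ∣ Nat.card P := Subgroup.relIndex_dvd_card _ _
    obtain ⟨n, hn⟩ := IsPGroup.iff_card.mp hPs.2.1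
    rw [hn] at hdvd
    obtain ⟨k, -, hk⟩ := (Nat.dvd_prime_pow hp).mp hdvd
    have hk0 : k ≠ 0 := by
      rintro rfl
      apply hPnD
      rw [pow_zero, Subgroup.relIndex_eq_one] at hk
      exact hk.trans inf_le_left
    rw [hk]
    exact Nat.le_self_pow hk0 p
  have hprodP : ∀ x ∈ Q, ∃ y ∈ P, ∃ d ∈ D, x = y * d :=
    exists_mul_of_relIndex_le hPQ (by rw [hDidx]; exact hPidx)
  -- `Q = [Q, A] ≤ [P, A] ≤ P`
  have hQP : Q ≤ P := by
    have h1 : ⁅Q, A⁆ ≤ P := by
      rw [Subgroup.commutator_le]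
      intro x hx a ha
      obtain ⟨y, hy, d, hd, rfl⟩ := hprodP x hx
      have hda : d * a = a * d := by
        have := (Subgroup.mem_inf.mp hd).2
        rw [Subgroup.mem_centralizer_iff] at this
        exact (this a ha).symm
      have e : ⁅y * d, a⁆ = y * (a * y⁻¹ * a⁻¹) := by
        rw [commutatorElement_def]
        have h2 : y * d * a * (y * d)⁻¹ * a⁻¹ = y * (d * a) * d⁻¹ * y⁻¹ * a⁻¹ := by group
        rw [h2, hda]
        group
      rw [e]
      exact P.mul_mem hy (conj_mem_of_le_normalizer hAP ha (P.inv_mem hy))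
    rwa [hQQ] at h1
  have hQp : IsPGroup p Q := hPs.2.1.to_le hQP
  -- `D` is normal in `Q`
  have hD'idx : (D.subgroupOf Q).index = p := hDidx
  have hD'n : (D.subgroupOf Q).Normal := by
    apply Subgroup.normal_of_index_eq_minFac_card
    rw [hD'idx]
    obtain ⟨n, hn⟩ := IsPGroup.iff_card.mp hQp
    have hn0 : n ≠ 0 := by
      rintro rfl
      have h1 : D.relIndex Q ∣ Nat.card Q := Subgroup.relIndex_dvd_card _ _
      rw [hn, hDidx, pow_zero] at h1
      exact hp.one_lt.ne' (Nat.dvd_one.mp h1)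
    rw [hn, hp.pow_minFac hn0]
  have hDconj : ∀ q ∈ Q, ∀ d ∈ D, q * d * q⁻¹ ∈ D := by
    intro q hq d hd
    have := hD'n.conj_mem ⟨d, hDQ hd⟩ (Subgroup.mem_subgroupOf.mpr hd) ⟨q, hq⟩
    exact Subgroup.mem_subgroupOf.mp this
  -- `[Q, D] = 1` by the three subgroups lemma
  have hDAbot : ⁅D, A⁆ = ⊥ := by
    rw [Subgroup.commutator_eq_bot_iff_le_centralizer]
    exact inf_le_right
  have hQDbot : ⁅Q, D⁆ = ⊥ := by
    have h1 : ⁅⁅A, D⁆, Q⁆ = ⊥ := by
      rw [Subgroup.commutator_comm A D, hDAbot, Subgroup.commutator_bot_left]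
    have h2 : ⁅⁅D, Q⁆, A⁆ = ⊥ := by
      have h3 : ⁅D, Q⁆ ≤ D := by
        rw [Subgroup.commutator_le]
        intro d hd q hq
        have e : ⁅d, q⁆ = d * (q * d⁻¹ * q⁻¹) := by
          rw [commutatorElement_def]; group
        rw [e]
        exact D.mul_mem hd (hDconj q hq _ (D.inv_mem hd))
      rw [eq_bot_iff, ← hDAbot]
      exact Subgroup.commutator_mono h3 le_rfl
    have h3 := Subgroup.commutator_commutator_eq_bot_of_rotate h1 h2
    rwa [hQQ] at h3
  -- `Q` is abelian
  have hQab : IsMulCommutative Q := by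
    have hcyc : IsCyclic (Q ⧸ D.subgroupOf Q) :=
      isCyclic_of_prime_card (p := p) (by rw [← hD'idx]; rfl)
    apply MonoidHom.isMulCommutative_of_isCyclic_of_ker_le_center (QuotientGroup.mk' (D.subgroupOf Q))
    rw [QuotientGroup.ker_mk']
    intro d hd
    rw [Subgroup.mem_center_iff]
    intro q
    apply Subtype.ext
    have hd' : (d : G) ∈ D := Subgroup.mem_subgroupOf.mp hd
    have := Subgroup.commutator_mem_commutator q.2 hd'
    rw [hQDbot, Subgroup.mem_bot, commutatorElement_eq_one_iff_mul_comm] at this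
    exact this
  -- and then `D = 1`
  have hDbot : D = ⊥ := by
    have h1 := inf_commutator_eq_bot hAQ hcopQ
    rw [hQQ] at h1
    rwa [inf_eq_left.mpr hDQ] at h1
  have h2 := card_eq_card_mul_relIndex hDQ
  rw [hDidx, hDbot, Subgroup.card_bot, one_mul] at h2
  exact h2

end Cfsg.Agent.Lib.Coprime.PrimeIndex
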